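import Cfsg.Agent.CF.Trace
import Cfsg.Agent.CF.CriticalAction
import Cfsg.Agent.CF.ChiefStable
import Cfsg.Agent.CF.KGood
import Cfsg.Agent.CF.WeakClosure
import Cfsg.Agent.Transfer.Residual

/-!
Groups that are (p-group) by (abelian p') by (p-group): averaging kills small-degree actions on
chief factors, so these groups are p-stable.
-/

set_option autoImplicit false

open scoped commutatorElement IsMulCommutative

namespace Cfsg.Agent.CF

open Cfsg.Agent.Fusion

variable {p : ℕ} [Fact p.Prime]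

/-- `Y` is an extension p-group by abelian p'-group by p-group. -/
def ClassPAP (p : ℕ) (Y : Type*) [Group Y] : Prop :=
  ∃ Q M : Subgroup Y, Q.Normal ∧ M.Normal ∧ IsPGroup p Q ∧ ⁅M, M⁆ ≤ Q ∧
    (∀ x ∈ M, ∃ m : ℕ, m.Coprime p ∧ x ^ m ∈ Q) ∧ ∀ y : Y, ∃ k : ℕ, y ^ p ^ k ∈ M

omit [Fact p.Prime] in
theorem ClassPAP.of_injective {X Y : Type*} [Group X] [Group Y] (h : ClassPAP p Y) (f : X →* Y)
    (hf : Function.Injective f) : ClassPAP p X := by
  obtain ⟨Q, M, hQn, hMn, hQ, hc, hm, hp⟩ := h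
  refine ⟨Q.comap f, M.comap f, hQn.comap f, hMn.comap f, hQ.comap_of_injective f hf, ?_, ?_, ?_⟩
  · rw [← Subgroup.map_le_iff_le_comap, Subgroup.map_commutator]
    exact (Subgroup.commutator_mono (Subgroup.map_comap_le _ _) (Subgroup.map_comap_le _ _)).trans hc
  · intro x hx
    obtain ⟨m, h1, h2⟩ := hm (f x) hx
    exact ⟨m, h1, by rw [Subgroup.mem_comap, map_pow]; exact h2⟩
  · intro y
    obtain ⟨k, hk⟩ := hp (f y)
    exact ⟨k, by rw [Subgroup.mem_comap, map_pow]; exact hk⟩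

omit [Fact p.Prime] in
theorem ClassPAP.of_surjective {X Y : Type*} [Group X] [Group Y] (h : ClassPAP p X) {f : X →* Y}
    (hf : Function.Surjective f) : ClassPAP p Y := by
  obtain ⟨Q, M, hQn, hMn, hQ, hc, hm, hp⟩ := h
  refine ⟨Q.map f, M.map f, hQn.map f hf, hMn.map f hf, hQ.map f, ?_, ?_, ?_⟩
  · rw [← Subgroup.map_commutator]; exact Subgroup.map_mono hc
  · rintro _ ⟨x, hx, rfl⟩
    obtain ⟨m, h1, h2⟩ := hm x hx
    exact ⟨m, h1, x ^ m, h2, map_pow f x m⟩
  · intro y
    obtain ⟨x, rfl⟩ := hf y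
    obtain ⟨k, hk⟩ := hp x
    exact ⟨k, x ^ p ^ k, hk, map_pow f x _⟩

omit [Fact p.Prime] in
theorem commutator_pow_mem_range {Y : Type*} [Group Y] (A : Subgroup Y) [A.Normal] (h : Y) :
    ∀ m : ℕ, ∀ a ∈ A, (∀ x ∈ A, ∀ y ∈ A, x * y = y * x) →
      ∃ b ∈ A, ⁅a, h ^ m⁆ = ⁅b, h⁆ := by
  intro m
  induction m with
  | zero => exact fun a ha _ => ⟨1, A.one_mem, by simp⟩
  | succ m ih =>
    intro a ha hA
    obtain ⟨b, hb, he⟩ := ih a ha hA
    have hb' : h * b * h⁻¹ ∈ A := (inferInstance : A.Normal).conj_mem b hb h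
    refine ⟨h * b * h⁻¹ * a, A.mul_mem hb' ha, ?_⟩
    have hm : ∀ {x}, x ∈ A → ⁅x, h⁆ ∈ A := fun {x} hx => Subgroup.commutator_le_left A ⊤
      (Subgroup.commutator_mem_commutator hx (Subgroup.mem_top h))
    have e1 : ⁅a, h ^ (m + 1)⁆ = ⁅a, h⁆ * (h * ⁅a, h ^ m⁆ * h⁻¹) := by
      rw [pow_succ']; simp only [commutatorElement_def]; group
    have e2 : h * ⁅b, h⁆ * h⁻¹ = ⁅h * b * h⁻¹, h⁆ := by
      simp only [commutatorElement_def]; group
    have e3 : ⁅h * b * h⁻¹ * a, h⁆ =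
        h * b * h⁻¹ * ⁅a, h⁆ * (h * b * h⁻¹)⁻¹ * ⁅h * b * h⁻¹, h⁆ := by
      simp only [commutatorElement_def]; group
    rw [e1, he, e2, e3, hA _ hb' _ (hm ha), mul_inv_cancel_right]

/-- The averaging lemma. -/
theorem comm_trivial_of_trace {Y R : Type*} [Group Y] [Finite Y] [Ring R] (σ : Y →* R)
    (A : Subgroup Y) [A.Normal] (hA : ∀ x ∈ A, ∀ y ∈ A, x * y = y * x)
    (hn : ∀ r : R, Nat.card A • r = 0 → r = 0) {g : Y} {k : ℕ} (hord : g ^ p ^ k = 1)
    (hg : ∀ a ∈ A, ∑ i ∈ Finset.range p, σ ((a * g * a⁻¹) ^ i) = 0) :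
    ∀ a ∈ A, σ ⁅a, g⁆ = 1 := by
  classical
  haveI : Fintype A := Fintype.ofFinite _
  intro a₀ ha₀
  set c := ⁅a₀, g⁆ with hc
  have hsum : ∑ i ∈ Finset.range p, (∑ a : A, σ ⁅(a : Y), g ^ i⁆) * σ (g ^ i) = 0 := by
    have h1 : ∀ (a : A) (i : ℕ), σ (((a : Y) * g * (a : Y)⁻¹) ^ i) =
        σ ⁅(a : Y), g ^ i⁆ * σ (g ^ i) := fun a i => by
      rw [← map_mul, conj_pow]
      congr 1
      simp only [commutatorElement_def]; group
    simp only [Finset.sum_mul, ← h1]
    rw [Finset.sum_comm]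
    exact Finset.sum_eq_zero fun a _ => hg a a.2
  have hkill : ∀ i ∈ Finset.range p, i ≠ 0 →
      (σ c - 1) * ∑ a : A, σ ⁅(a : Y), g ^ i⁆ = 0 := by
    intro i hi hi0
    have hco : i.Coprime (orderOf g) := by
      refine Nat.Coprime.coprime_dvd_right (orderOf_dvd_of_pow_eq_one hord) ?_
      refine Nat.Coprime.pow_right k ?_
      exact Nat.coprime_comm.mp ((Fact.out : p.Prime).coprime_iff_not_dvd.mpr
        (Nat.not_dvd_of_pos_of_lt (Nat.pos_of_ne_zero hi0) (Finset.mem_range.mp hi)))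
    obtain ⟨m, hm⟩ := exists_pow_eq_self_of_coprime hco
    obtain ⟨b, hb, he⟩ := commutator_pow_mem_range A (g ^ i) m a₀ ha₀ hA
    rw [hm] at he
    rw [sub_mul, one_mul, sub_eq_zero, Finset.mul_sum]
    refine Fintype.sum_equiv (Equiv.mulLeft (⟨b, hb⟩ : A)) _ _ fun a => ?_
    have e3 : ⁅b * (a : Y), g ^ i⁆ = b * ⁅(a : Y), g ^ i⁆ * b⁻¹ * ⁅b, g ^ i⁆ := by
      simp only [commutatorElement_def]; group
    have hmA : ∀ {x}, x ∈ A → ⁅x, g ^ i⁆ ∈ A := fun {x} hx => Subgroup.commutator_le_left A ⊤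
      (Subgroup.commutator_mem_commutator hx (Subgroup.mem_top _))
    show σ c * σ ⁅(a : Y), g ^ i⁆ = σ ⁅b * (a : Y), g ^ i⁆
    rw [← map_mul, hc, he, e3, hA b hb _ (hmA a.2), mul_inv_cancel_right,
      hA _ (hmA hb) _ (hmA a.2)]
  have h2 : (σ c - 1) * ((∑ a : A, σ ⁅(a : Y), g ^ 0⁆) * σ (g ^ 0)) = 0 := by
    have h3 := congrArg (fun r => (σ c - 1) * r) hsum
    simp only [mul_zero, Finset.mul_sum] at h3
    rw [Finset.sum_eq_single_of_mem 0 (Finset.mem_range.mpr (Fact.out : p.Prime).pos) ?_] at h3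
    · exact h3
    · intro i hi hi0
      rw [← mul_assoc, hkill i hi hi0, zero_mul]
  simp only [pow_zero, commutatorElement_one_right, map_one, mul_one, Finset.sum_const,
    Finset.card_univ, mul_smul_comm] at h2
  exact sub_eq_zero.mp (hn _ (by rw [Nat.card_eq_fintype_card]; exact h2))

/-- Elements acting with degree less than `p` on a chief factor act trivially. -/
theorem chief_trivial_of_class {Y : Type*} [Group Y] [Finite Y] (hY : ClassPAP p Y)
    {U V : Subgroup Y} (h : Cfsg.IsChiefFactor U V) (hU : IsPGroup p U) {g : Y}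
    (hit : Cfsg.iterCommutator U (Subgroup.zpowers g) (p - 1) ≤ V) {k : ℕ}
    (hk : ∀ u ∈ U, ⁅g ^ p ^ k, u⁆ ∈ V) : ∀ u ∈ U, ⁅g, u⁆ ∈ V := by
  obtain ⟨Q, M, hQn, hMn, hQ, hcomm, hM, hp⟩ := hY
  haveI := hQn
  haveI := hMn
  haveI : U.Normal := h.2.1
  haveI : V.Normal := h.2.2.1
  set π := QuotientGroup.mk' V with hπ
  have hs : Function.Surjective π := QuotientGroup.mk'_surjective V
  have hchief := chief_map hs h (QuotientGroup.ker_mk' V).le
  rw [QuotientGroup.map_mk'_self] at hchief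
  set E := U.map π with hE
  haveI : E.Normal := (inferInstance : U.Normal).map π hs
  obtain ⟨hEc, hexp⟩ := elementary_of_chief_bot hchief (hU.map π)
  haveI := hEc
  set K := Subgroup.centralizer (E : Set (Y ⧸ V)) with hK
  haveI : K.Normal := by rw [hK]; infer_instance
  set ρ := QuotientGroup.mk' K with hρ
  have hρs : Function.Surjective ρ := QuotientGroup.mk'_surjective K
  -- `Q` acts trivially
  have hQK : ∀ x ∈ Q, π x ∈ K := by
    intro x hx
    rw [hK, Subgroup.mem_centralizer_iff]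
    rintro _ ⟨u, hu, rfl⟩
    symm
    rw [← commutatorElement_eq_one_iff_mul_comm, ← map_commutatorElement]
    exact (QuotientGroup.eq_one_iff _).mpr (chief_centralized (P := Q ⊔ U)
      (hQ.to_sup_of_normal_left hU) h le_sup_right x (Subgroup.mem_sup_left hx) u hu)
  -- the action
  have hker : K ≤ (conjEnd E).ker := fun x hx => by
    refine MonoidHom.mem_ker.mpr (AddMonoidHom.ext fun v => ?_)
    refine congrArg Additive.ofMul (Subtype.ext ?_)
    show x * ((Additive.toMul v : E) : Y ⧸ V) * x⁻¹ = _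
    rw [← Subgroup.mem_centralizer_iff.mp hx _ (Additive.toMul v).2, mul_inv_cancel_right]
    rfl
  let σ : ((Y ⧸ V) ⧸ K) →* AddMonoid.End (Additive E) := QuotientGroup.lift K (conjEnd E) hker
  have hσ : ∀ z, σ z = 1 → z = 1 := by
    intro z hz
    obtain ⟨x, rfl⟩ := hρs z
    refine (QuotientGroup.eq_one_iff x).mpr (Subgroup.mem_centralizer_iff.mpr fun e he => ?_)
    have h1 : conjEnd E x (Additive.ofMul ⟨e, he⟩) = Additive.ofMul ⟨e, he⟩ :=
      DFunLike.congr_fun hz _
    have h2 : x * e * x⁻¹ = e := by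
      have := congrArg (fun w => ((Additive.toMul w : E) : Y ⧸ V)) h1
      exact this
    conv_lhs => rw [← h2]
    group
  set A := (M.map π).map ρ with hA
  haveI : A.Normal := (hMn.map π hs).map ρ hρs
  have hAc : ∀ x ∈ A, ∀ y ∈ A, x * y = y * x := by
    rintro _ ⟨_, ⟨x, hx, rfl⟩, rfl⟩ _ ⟨_, ⟨y, hy, rfl⟩, rfl⟩
    rw [← commutatorElement_eq_one_iff_mul_comm, ← map_commutatorElement, ← map_commutatorElement]
    exact (QuotientGroup.eq_one_iff _).mpr (hQK _ (hcomm (Subgroup.commutator_mem_commutator hx hy)))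
  have hAp : ¬ p ∣ Nat.card A := by
    intro hd
    obtain ⟨a, ha⟩ := exists_prime_orderOf_dvd_card' p hd
    obtain ⟨-, ⟨x, hx, rfl⟩, hxa⟩ := a.2
    obtain ⟨m, hm, hxm⟩ := hM x hx
    have h1 : a ^ m = 1 := Subtype.ext (by
      rw [SubgroupClass.coe_pow, ← hxa, ← map_pow, ← map_pow]
      exact (QuotientGroup.eq_one_iff _).mpr (hQK _ hxm))
    exact (Fact.out : p.Prime).ne_one
      (ha ▸ Nat.eq_one_of_dvd_coprimes hm (orderOf_dvd_of_pow_eq_one h1) (ha ▸ dvd_rfl))
  set gb := ρ (π g) with hgb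
  have hord : gb ^ p ^ k = 1 := by
    rw [hgb, ← map_pow, ← map_pow]
    refine (QuotientGroup.eq_one_iff _).mpr (Subgroup.mem_centralizer_iff.mpr ?_)
    rintro _ ⟨u, hu, rfl⟩
    symm
    rw [← commutatorElement_eq_one_iff_mul_comm, ← map_commutatorElement]
    exact (QuotientGroup.eq_one_iff _).mpr (hk u hu)
  have hp0 : ∀ r : AddMonoid.End (Additive E), p • r = 0 := fun r => by
    refine AddMonoidHom.ext fun v => ?_
    show p • r v = 0
    exact congrArg Additive.ofMul (show (Additive.toMul (r v) : E) ^ p = 1 from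
      Subtype.ext (hexp _ (Additive.toMul (r v)).2))
  have hit' : Cfsg.iterCommutator E (Subgroup.zpowers (π g)) (p - 1) = ⊥ := by
    rw [hE, ← MonoidHom.map_zpowers, ← map_iterCommutator, Subgroup.map_eq_bot_iff,
      QuotientGroup.ker_mk']
    exact hit
  have key := comm_trivial_of_trace σ A hAc (fun r hr => by
      have hco : Nat.gcd (Nat.card A) p = 1 :=
        Nat.Coprime.symm ((Fact.out : p.Prime).coprime_iff_not_dvd.mpr hAp)
      have := gcd_nsmul_eq_zero.mpr ⟨hr, hp0 r⟩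
      rwa [hco, one_nsmul] at this) hord (by
    rintro _ ⟨y, -, rfl⟩
    have he : ρ y * gb * (ρ y)⁻¹ = ρ (y * π g * y⁻¹) := by simp [hgb]
    rw [he]
    have h0 := geom_sum_conjEnd_eq_zero E hexp (g := y * π g * y⁻¹) (by
      rw [← cj_eq_of_normal y E, iterCommutator_cj, hit', cj_bot])
    rw [← h0]
    refine Finset.sum_congr rfl fun i _ => ?_
    rw [map_pow]
    rfl)
  -- `gb` centralizes `A`
  set C := Subgroup.centralizer (A : Set ((Y ⧸ V) ⧸ K)) with hC
  haveI : C.Normal := by rw [hC]; infer_instance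
  have hgC : gb ∈ C := by
    rw [hC, Subgroup.mem_centralizer_iff]
    intro a ha
    exact commutatorElement_eq_one_iff_mul_comm.mp (hσ _ (key a ha))
  obtain ⟨P⟩ : Nonempty (Sylow p C) := inferInstance
  have hres : Cfsg.pResidual p C ≤ A.subgroupOf C := by
    refine Transfer.pResidual_le_of_isPGroup_quotient _ fun z => ?_
    obtain ⟨⟨c, hc⟩, rfl⟩ := QuotientGroup.mk'_surjective _ z
    obtain ⟨x, rfl⟩ := hρs c
    obtain ⟨y, rfl⟩ := hs x
    obtain ⟨l, hl⟩ := hp y
    refine ⟨l, ?_⟩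
    rw [← map_pow]
    refine (QuotientGroup.eq_one_iff _).mpr ?_
    rw [Subgroup.mem_subgroupOf, SubgroupClass.coe_pow, ← map_pow, ← map_pow]
    exact ⟨_, Subgroup.mem_map_of_mem π hl, rfl⟩
  have hPn : (P : Subgroup C).Normal := by
    refine ⟨fun x hx c => ?_⟩
    obtain ⟨w, hw, u, hu, rfl⟩ := Transfer.exists_mul_eq_of_not_dvd_index P.not_dvd_index c
    have hwA : (w : (Y ⧸ V) ⧸ K) ∈ A := hres hw
    have hcen : w * (u * x * u⁻¹) = (u * x * u⁻¹) * w := Subtype.ext
      (Subgroup.mem_centralizer_iff.mp (u * x * u⁻¹ : C).2 _ hwA)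
    rw [show w * u * x * (w * u)⁻¹ = w * (u * x * u⁻¹) * w⁻¹ by group, hcen, mul_inv_cancel_right]
    exact mul_mem (mul_mem hu hx) (inv_mem hu)
  haveI := hPn
  haveI : (P : Subgroup C).Characteristic := P.characteristic_of_normal hPn
  set P' := (P : Subgroup C).map C.subtype with hP'
  haveI : P'.Normal := Cores.normal_map_subtype_of_characteristic _
  have hgP : gb ∈ P' := by
    refine ⟨⟨gb, hgC⟩, ?_, rfl⟩
    have hgp : IsPGroup p (Subgroup.zpowers (⟨gb, hgC⟩ : C)) := fun z => by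
      obtain ⟨n, hn⟩ := z.2
      refine ⟨k, Subtype.ext ?_⟩
      rw [SubgroupClass.coe_pow, OneMemClass.coe_one, ← hn, ← zpow_natCast, ← zpow_mul, mul_comm,
        zpow_mul, zpow_natCast, show (⟨gb, hgC⟩ : C) ^ p ^ k = 1 from Subtype.ext hord, one_zpow]
    obtain ⟨P₂, hP₂⟩ := hgp.exists_le_sylow
    haveI : Unique (Sylow p C) := P.unique_of_normal hPn
    rw [Subsingleton.elim P P₂]
    exact hP₂ (Subgroup.mem_zpowers _)
  -- so it is trivial
  haveI : (P'.comap ρ).Normal := Subgroup.Normal.comap inferInstance ρ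
  let f : ↥(P'.comap ρ) →* ↥P' := ρ.subgroupComap P'
  have hfs : Function.Surjective f := ρ.subgroupComap_surjective_of_surjective P' hρs
  have hgx : π g ∈ K := by
    refine chief_centralized_mod hchief (hU.map π) (M := P'.comap ρ) ((P.2).map C.subtype) f hfs ?_
      (show π g ∈ P'.comap ρ from hgP)
    rintro _ ⟨x, hx, rfl⟩
    exact (QuotientGroup.eq_one_iff (x : Y ⧸ V)).mp (congrArg Subtype.val hx)
  intro u hu
  refine (QuotientGroup.eq_one_iff _).mp ?_
  show π ⁅g, u⁆ = 1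
  rw [map_commutatorElement, commutatorElement_eq_one_iff_mul_comm]
  exact (Subgroup.mem_centralizer_iff.mp hgx (π u) (Subgroup.mem_map_of_mem π hu)).symm

/-- Groups of this class are p-stable for odd p. -/
theorem stable_of_class {Y : Type*} [Group Y] [Finite Y] (hp2 : p ≠ 2) (hY : ClassPAP p Y) :
    Cfsg.IsNormalizerPStable p Y := by
  intro P hP g hg hq
  set N := Subgroup.normalizer (P : Set Y) with hN
  set C := (Subgroup.centralizer (P : Set Y)).subgroupOf N with hC
  set P' := P.subgroupOf N with hP'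
  haveI : P'.Normal := Subgroup.normal_in_normalizer
  have hclass : ClassPAP p N := hY.of_injective N.subtype N.subtype_injective
  have hPp : IsPGroup p P' := hP.comap_subtype
  set g' : N := ⟨g, hg⟩ with hg'
  have hquad : ⁅⁅P', Subgroup.zpowers g'⁆, Subgroup.zpowers g'⁆ = ⊥ := by
    rw [← Subgroup.map_eq_bot_iff_of_injective _ N.subtype_injective, Subgroup.map_commutator,
      Subgroup.map_commutator, MonoidHom.map_zpowers,
      Subgroup.map_subgroupOf_eq_of_le Subgroup.le_normalizer]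
    exact hq
  obtain ⟨k, hk⟩ := IsPGroup.iff_card.mp hPp
  have hcent : ∀ v ∈ P', ⁅g' ^ p ^ k, v⁆ = 1 := fun v hv => by
    have hc : ⁅v, g'⁆ ∈ P' := Subgroup.commutator_le_left P' ⊤
      (Subgroup.commutator_mem_commutator hv (Subgroup.mem_top g'))
    have hz : IsMulCommutative (⊥ : Subgroup N) := inferInstance
    have h1 := quad_pow (Z := (⊥ : Subgroup N)) (d := g') (v := v) (Subgroup.mem_bot.mp
      (hquad.le (Subgroup.commutator_mem_commutator (Subgroup.commutator_mem_commutator hv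
        (Subgroup.mem_zpowers g')) (Subgroup.mem_zpowers g')))) (p ^ k)
    have h2 : ⁅v, g'⁆ ^ p ^ k = 1 := by
      rw [← hk]
      exact congrArg Subtype.val (pow_card_eq_one' (x := (⟨_, hc⟩ : P')))
    rw [h2, inv_one, one_mul] at h1
    rw [commutatorElement_def, h1, mul_inv_cancel]
  set K := factorKer (fun U _ : Subgroup N => U ≤ P') with hK
  have hgK : g' ∈ K := by
    intro U V hUV hU u hu
    haveI : V.Normal := hUV.2.2.1
    refine chief_trivial_of_class hclass hUV (hPp.to_le hU) ?_ (k := k) (fun v hv => by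
      rw [hcent v (hU hv)]; exact V.one_mem) u hu
    refine iterCommutator_le_of_le (m := 2) ?_ ?_
    · have := (Fact.out : p.Prime).two_le
      omega
    · exact (Subgroup.commutator_mono (Subgroup.commutator_mono hU le_rfl) le_rfl).trans
        (hquad.le.trans bot_le)
  haveI : (K.map (QuotientGroup.mk' C)).Normal :=
    (factorKer_normal _).map _ (QuotientGroup.mk'_surjective C)
  refine Cores.le_pCore (N := K.map (QuotientGroup.mk' C)) inferInstance ?_ ⟨g', hgK, rfl⟩
  rintro ⟨_, x, hx, rfl⟩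
  obtain ⟨l, hl⟩ := exists_pow_coprime (p := p) x
  refine ⟨l, Subtype.ext ?_⟩
  simp only [SubgroupClass.coe_pow, OneMemClass.coe_one, ← map_pow]
  refine (QuotientGroup.eq_one_iff _).mpr ?_
  have hfix := centralizes_step hl (N := ⊥) (fun n hn => by rw [Subgroup.mem_bot.mp hn]; group)
    P' inferInstance hPp bot_le (fun U V hUV hU _ => K.pow_mem hx (p ^ l) U V hUV hU)
  rw [hC, Subgroup.mem_subgroupOf, Subgroup.mem_centralizer_iff]
  intro v hv
  have := congrArg Subtype.val (hfix ⟨v, Subgroup.le_normalizer hv⟩ hv)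
  simp only [Subgroup.coe_mul, Subgroup.coe_inv] at this
  conv_lhs => rw [← this]
  group

end Cfsg.Agent.CF
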