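import Cfsg.Agent.CF.WeakClosureInd
import Cfsg.Agent.CF.KGoodCritical

/-!
The lower K-infinity subgroup and weak closure.
-/

set_option autoImplicit false

open scoped commutatorElement

namespace Cfsg.Agent.CF

open Cfsg.Agent.Fusion

universe u

variable {G : Type u} [Group G] [Finite G] {p : ℕ} [Fact p.Prime]

theorem center_le_kInfLower_induced (P : Subgroup G) (hP : IsPGroup p P) :
    P ⊓ Subgroup.centralizer (P : Set G) ≤ Cfsg.inducedFunctor Cfsg.kInfLower P := by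
  intro x hx
  refine ⟨⟨x, hx.1⟩, center_le_kInfLower hP ?_, rfl⟩
  exact Subgroup.mem_center_iff.mpr fun q =>
    Subtype.ext (Subgroup.mem_centralizer_iff.mp hx.2 q q.2)

theorem exists_four_local (H T : Subgroup G) (hTH : T ≤ H) (hTp : IsPGroup p T)
    (hidx : ¬ p ∣ T.relIndex H) (hn : ¬ H ≤ Nz (Cfsg.inducedFunctor Cfsg.kInfLower T)) :
    ∃ g : H, (g : G) ∈ T ∧ g ∉ Cfsg.pCore p H ∧
      ⁅⁅zed (Cfsg.pCore p H), Subgroup.zpowers g⁆, Subgroup.zpowers g⁆ = ⊥ := by
  let S : Sylow p H := (hTp.comap_subtype (K := H)).toSylow hidx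
  have hS : (S : Subgroup H).map H.subtype = T := Subgroup.map_subgroupOf_eq_of_le hTH
  obtain ⟨g, hg, hgQ, -, hq, -⟩ := exists_four S (Or.inl fun hnorm => hn (by
    rw [← hS, inducedFunctor_map_of_injective (isCharPFunctor_kInfLower p) _ H.subtype_injective S.2]
    conv_lhs => rw [← H.range_subtype, MonoidHom.range_eq_map]
    haveI := hnorm; exact le_Nz_map.mp (le_Nz_of_normal ⊤ _)))
  exact ⟨g, hS.le ⟨g, hg, rfl⟩, hgQ, hq⟩

end Cfsg.Agent.CF
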