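import Cfsg.Agent.CF.Sections
import Cfsg.Agent.Transfer.Frobenius

/-!
The reduction for normal p-complement criteria in functor form.
-/

set_option autoImplicit false

open scoped Pointwise

namespace Cfsg.Agent.CF

open Cfsg.Agent.Fusion

universe u

variable {p : ℕ} [Fact p.Prime]

theorem npc_map {X Y : Type*} [Group X] [Group Y] [Finite X] {f : X →* Y}
    (hf : Function.Surjective f) (h : Cfsg.HasNormalPComplement p X) :
    Cfsg.HasNormalPComplement p Y := by
  haveI : Finite Y := Finite.of_surjective f hf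
  haveI hn : ((Cfsg.pResidual p X).map f).Normal :=
    Subgroup.Normal.map inferInstance f hf
  obtain ⟨n, hn'⟩ := Transfer.exists_index_pResidual_eq_pow (p := p) (G := X)
  obtain ⟨m, -, hm⟩ := (Nat.dvd_prime_pow (Fact.out : p.Prime)).mp
    (hn' ▸ Subgroup.index_map_dvd (Cfsg.pResidual p X) hf)
  exact Transfer.hasNormalPComplement_of_normal _
    (fun hd => Transfer.hasNormalPComplement_iff.mp h
      (hd.trans ((Cfsg.pResidual p X).card_map_dvd f))) hm

theorem npc_of_quotient {X : Type*} [Group X] [Finite X] (N : Subgroup X) [N.Normal]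
    (hN : ¬ p ∣ Nat.card N) (h : Cfsg.HasNormalPComplement p (X ⧸ N)) :
    Cfsg.HasNormalPComplement p X := by
  set π := QuotientGroup.mk' N
  have hs : Function.Surjective π := QuotientGroup.mk'_surjective N
  obtain ⟨n, hn⟩ := Transfer.exists_index_pResidual_eq_pow (p := p) (G := X ⧸ N)
  refine Transfer.hasNormalPComplement_of_normal ((Cfsg.pResidual p (X ⧸ N)).comap π) (fun hd => ?_)
    (n := n) ((Subgroup.index_comap_of_surjective _ hs).trans hn)
  rw [Cores.card_comap_mk_eq] at hd
  rcases (Nat.Prime.dvd_mul (Fact.out : p.Prime)).mp hd with h1 | h1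
  · first
    | exact hN h1
    | exact Transfer.hasNormalPComplement_iff.mp h h1
  · first
    | exact hN h1
    | exact Transfer.hasNormalPComplement_iff.mp h h1

theorem npc_mono {X : Type*} [Group X] [Finite X] {H K : Subgroup X} (hHK : H ≤ K)
    (h : Cfsg.HasNormalPComplement p K) : Cfsg.HasNormalPComplement p H :=
  Transfer.hasNormalPComplement_of_injective (Subgroup.inclusion hHK)
    (Subgroup.inclusion_injective hHK) h

theorem npc_cj {X : Type*} [Group X] [Finite X] (g : X) (H : Subgroup X) :
    Cfsg.HasNormalPComplement p H ↔ Cfsg.HasNormalPComplement p (cj g H) :=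
  Transfer.hasNormalPComplement_congr (MulEquiv.subgroupMap (MulAut.conj g) H)

theorem npc_of_Nz_top {X : Type*} [Group X] [Finite X] {H : Subgroup X} (hH : H = ⊤)
    (h : Cfsg.HasNormalPComplement p H) : Cfsg.HasNormalPComplement p X := by
  subst hH
  exact (Transfer.hasNormalPComplement_congr Subgroup.topEquiv).mp h

variable {W : ∀ (Q : Type u) [Group Q], Subgroup Q}

theorem npc_Nz_subgroup (hW : Cfsg.IsCharPFunctor.{u} p W) {X : Type u} [Group X] [Finite X]
    {H P : Subgroup X} (hP : IsPGroup p P) (hPH : P ≤ H)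
    (h : Cfsg.HasNormalPComplement p ↥(H ⊓ Nz (Cfsg.inducedFunctor W P))) :
    Cfsg.HasNormalPComplement p ↥(Nz (Cfsg.inducedFunctor W (P.subgroupOf H))) := by
  set N := Nz (Cfsg.inducedFunctor W (P.subgroupOf H)) with hN
  refine Transfer.hasNormalPComplement_of_injective
    ((H.subtype.comp N.subtype).codRestrict (H ⊓ Nz (Cfsg.inducedFunctor W P)) fun x => ⟨(x : H).2, ?_⟩)
    ?_ h
  · have h1 : cj (x : H) (Cfsg.inducedFunctor W (P.subgroupOf H)) =
        Cfsg.inducedFunctor W (P.subgroupOf H) := mem_Nz.mp x.2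
    have h2 := congrArg (Subgroup.map H.subtype) h1
    rw [map_cj, ← inducedFunctor_map_of_injective hW _ H.subtype_injective
        (show IsPGroup p ↥(P.subgroupOf H) from hP.comap_subtype),
      Subgroup.map_subgroupOf_eq_of_le hPH] at h2
    exact mem_Nz.mpr h2
  · intro a b hab
    exact Subtype.ext (Subtype.ext (congrArg (fun z : ↥(H ⊓ Nz (Cfsg.inducedFunctor W P)) => (z : X)) hab))

/-- The minimal configuration: the residual case for normal p-complement criteria. -/
def MinimalNPC (p : ℕ) (W : ∀ (Q : Type u) [Group Q], Subgroup Q) (G : Type u) [Group G] : Prop :=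
  ∀ (X : Type u) [Group X] [Finite X], IsSec X G → Constrained p X →
    Cfsg.HasNormalPComplement p (X ⧸ Cfsg.pCore p X) → ∀ S : Sylow p X,
      IsCoatom (S : Subgroup X) →
      Cfsg.HasNormalPComplement p ↥(Nz (Cfsg.inducedFunctor W (S : Subgroup X))) →
      Cfsg.HasNormalPComplement p X

theorem npc_of_minimal (hW : Cfsg.IsCharPFunctor.{u} p W) {G : Type u} [Group G] [Finite G]
    (hmin : MinimalNPC p W G) : ∀ (X : Type u) [Group X] [Finite X], IsSec X G →
      ∀ S : Sylow p X,
        Cfsg.HasNormalPComplement p ↥(Nz (Cfsg.inducedFunctor W (S : Subgroup X))) →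
        Cfsg.HasNormalPComplement p X := by
  suffices main : ∀ (n : ℕ) (X : Type u) [Group X] [Finite X], IsSec X G → Nat.card X = n →
      ∀ S : Sylow p X,
        Cfsg.HasNormalPComplement p ↥(Nz (Cfsg.inducedFunctor W (S : Subgroup X))) →
        Cfsg.HasNormalPComplement p X from fun X _ _ hX S h => main _ X hX rfl S h
  intro n
  induction n using Nat.strong_induction_on with
  | _ n ih =>
    intro X _ _ hX hn S hN
    have hconj := isConjugacyFunctor_induced hW (p := p) (X := X)
    have hSW : (S : Subgroup X) ≤ Nz (Cfsg.inducedFunctor W (S : Subgroup X)) :=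
      Subgroup.le_normalizer.trans (normalizer_le_Nz_W hconj S.2)
    have hsub : ∀ (H P : Subgroup X), H ≠ ⊤ → IsSyl p P H →
        Cfsg.HasNormalPComplement p ↥(H ⊓ Nz (Cfsg.inducedFunctor W P)) →
        Cfsg.HasNormalPComplement p H := fun H P hH hP h =>
      ih _ (hn ▸ card_subgroup_lt H hH) H (hX.subgroup H) rfl
        ((hP.isP.comap_subtype (K := H)).toSylow hP.idx) (npc_Nz_subgroup hW hP.isP hP.le h)
    have hover : ∀ H : Subgroup X, (S : Subgroup X) ≤ H → H ≠ ⊤ →
        Cfsg.HasNormalPComplement p H := fun H hSH hH =>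
      hsub H S hH (IsSyl.sylow_inf hSH) (npc_mono inf_le_right hN)
    by_contra hnot
    -- some normal p-subgroup
    set Q := Cfsg.pCore p X with hQdef
    have hQ : Q ≠ ⊥ := by
      intro hQbot
      refine hnot (Transfer.hasNormalPComplement_iff_forall_normalizer.mpr fun R hR hR0 => ?_)
      by_contra hbad
      let bad : Subgroup X → Prop := fun R =>
        R ≠ ⊥ ∧ R ≤ (S : Subgroup X) ∧ IsSyl p ((S : Subgroup X) ⊓ Nz R) (Nz R) ∧
          ¬ Cfsg.HasNormalPComplement p ↥(Nz R)
      have hext : ∀ R : Subgroup X, R ≠ ⊥ → IsPGroup p R →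
          ¬ Cfsg.HasNormalPComplement p ↥(Nz R) →
          ∃ T, bad T ∧ ∀ P, IsSyl p P (Nz R) →
            Nat.card P ≤ Nat.card ((S : Subgroup X) ⊓ Nz T : Subgroup X) := by
        intro R hR0 hR hbadR
        obtain ⟨P, hP, hRP⟩ := exists_isSyl_ge hR (Subgroup.le_normalizer (H := R))
        obtain ⟨g, -, hg⟩ := (isSyl_sylow S).exists_conj_le hP.isP le_top
        have h1 := hP.map_conj g
        rw [cj_Nz] at h1
        have he := h1.inf_eq hg
        refine ⟨cj g R, ⟨cj_ne_bot hR0, (cj_mono _ hRP).trans hg, he ▸ h1, fun h => hbadR ?_⟩, ?_⟩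
        · rw [← cj_Nz, ← npc_cj] at h
          exact h
        · intro P' hP'
          obtain ⟨y, -, hy⟩ := hP'.exists_conj hP
          rw [he, card_cj, ← hy, card_cj]
      obtain ⟨T₀, hT₀, -⟩ := hext R hR0 hR hbad
      obtain ⟨T, hT, hmax⟩ := (Set.toFinite {T | bad T}).exists_maximalFor
        (fun T => Nat.card ((S : Subgroup X) ⊓ Nz T : Subgroup X)) _ ⟨T₀, hT₀⟩
      obtain ⟨hT0, hTS, hTsyl, hTbad⟩ := hT
      have hTtop : Nz T ≠ ⊤ := Nz_ne_top_of_not_le_pCore (S.2.to_le hTS)
        fun h => hT0 (le_bot_iff.mp (hQbot ▸ h))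
      refine hTbad (hsub (Nz T) _ hTtop hTsyl (npc_mono inf_le_right ?_))
      set P := (S : Subgroup X) ⊓ Nz T with hPdef
      by_cases hPS : P = (S : Subgroup X)
      · rw [hPS]; exact hN
      by_contra hbad'
      have hPp : IsPGroup p P := S.2.to_inf_left
      have hPne : P ≠ ⊥ := fun h => hT0
        (le_bot_iff.mp (h ▸ (le_inf hTS Subgroup.le_normalizer : T ≤ P)))
      obtain ⟨T', hT', hle⟩ := hext (Cfsg.inducedFunctor W P) (W_ne_bot hconj hPp hPne)
        (hPp.to_le (W_le hconj hPp)) hbad'
      obtain ⟨P', hP', hPP'⟩ := exists_isSyl_ge (H := Nz (Cfsg.inducedFunctor W P))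
        (S.2.to_inf_left (K := Nz (Cfsg.inducedFunctor W P))) inf_le_right
      have hgrow : P < (S : Subgroup X) ⊓ Nz (Cfsg.inducedFunctor W P) :=
        (lt_inf_normalizer S inf_le_left hPS).trans_le
          (inf_le_inf_left _ (normalizer_le_Nz_W hconj hPp))
      have h1 := card_lt_card hgrow
      have h2 := Subgroup.card_le_of_le hPP'
      have h3 := hle P' hP'
      have h4 : Nat.card ((S : Subgroup X) ⊓ Nz T' : Subgroup X) ≤ Nat.card P :=
        hmax (j := T') hT' (show Nat.card P ≤
          Nat.card ((S : Subgroup X) ⊓ Nz T' : Subgroup X) by omega)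
      omega
    -- no normal p'-subgroup
    by_cases hpp : Cfsg.pPrimeCore p X = ⊥
    swap
    · set N := Cfsg.pPrimeCore p X
      set π := QuotientGroup.mk' N
      have hs : Function.Surjective π := QuotientGroup.mk'_surjective N
      have hker : π.ker = N := QuotientGroup.ker_mk' N
      have hco : (Nat.card π.ker).Coprime p := by rw [hker]; exact Cores.pPrimeCore_coprime
      refine hnot (npc_of_quotient N ((Fact.out : p.Prime).coprime_iff_not_dvd.mp
        Cores.pPrimeCore_coprime.symm) ?_)
      refine ih _ (hn ▸ card_quotient_lt N hpp) (X ⧸ N) (hX.quotient N) rfl (S.mapSurjective hs) ?_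
      have hWS : Cfsg.inducedFunctor W ((S : Subgroup X).map π) =
          (Cfsg.inducedFunctor W (S : Subgroup X)).map π :=
        inducedFunctor_map hW π S.2 fun z hz hz1 => eq_one_of_isP_of_coprime S.2
          Cores.pPrimeCore_coprime hz ((QuotientGroup.eq_one_iff z).mp hz1)
      rw [Sylow.coe_mapSurjective, hWS]
      set M := Nz (Cfsg.inducedFunctor W (S : Subgroup X)) with hM
      have hle : M.map π = Nz ((Cfsg.inducedFunctor W (S : Subgroup X)).map π) := by
        refine le_antisymm ?_ fun y hy =>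
          exists_lift_normalizer hs hco (S.2.to_le (W_le hconj S.2)) hy
        rintro _ ⟨m, hm, rfl⟩
        exact mem_Nz.mpr (by rw [← map_cj, mem_Nz.mp hm])
      rw [← hle]
      exact npc_map (π.subgroupMap_surjective M) hN
    -- the quotient by `Q`
    set π := QuotientGroup.mk' Q with hπ
    have hs : Function.Surjective π := QuotientGroup.mk'_surjective Q
    have hQS : Q ≤ (S : Subgroup X) := Cores.pCore_le_sylow S
    have hWne : (Cfsg.inducedFunctor W (S : Subgroup X)) ≠ ⊥ := W_ne_bot hconj S.2
      fun h => hQ (le_bot_iff.mp (h ▸ hQS))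
    have hquot : Cfsg.HasNormalPComplement p (X ⧸ Q) := by
      by_cases hSQ : (S : Subgroup X) = Q
      · refine absurd (npc_of_Nz_top ?_ hN) hnot
        refine top_le_iff.mp (le_trans ?_ (normalizer_le_Nz_W hconj S.2))
        rw [hSQ]
        exact (Subgroup.normalizer_eq_top (H := Q)).ge
      refine ih _ (hn ▸ card_quotient_lt Q hQ) (X ⧸ Q) (hX.quotient Q) rfl (S.mapSurjective hs) ?_
      rw [Sylow.coe_mapSurjective]
      have hSp : IsPGroup p ((S : Subgroup X).map π) := S.2.map π
      have hSne : (S : Subgroup X).map π ≠ ⊥ := fun h => hSQ (by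
        rw [Subgroup.map_eq_bot_iff, QuotientGroup.ker_mk'] at h
        exact le_antisymm h hQS)
      have hconjQ := isConjugacyFunctor_induced hW (p := p) (X := X ⧸ Q)
      set V := Cfsg.inducedFunctor W ((S : Subgroup X).map π) with hV
      have hne := pCore_quot_Nz_ne_top (X := X) (hSp.to_le (W_le hconjQ hSp))
        (W_ne_bot hconjQ hSp hSne)
      have hSH : (S : Subgroup X) ≤ (Nz V).comap π := by
        rw [← Subgroup.map_le_iff_le_comap]
        exact Subgroup.le_normalizer.trans (normalizer_le_Nz_W hconjQ hSp)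
      have h1 := npc_map (π.subgroupComap_surjective_of_surjective (Nz V) hs)
        (hover _ hSH hne)
      exact h1
    -- constrained
    have hC : Constrained p X := by
      set C := Subgroup.centralizer (Q : Set X) with hCdef
      haveI : C.Normal := by rw [hCdef]; infer_instance
      set M := (Cfsg.pResidual p (X ⧸ Q)).comap π with hMdef
      haveI : M.Normal := by rw [hMdef]; infer_instance
      set D := C ⊓ M with hD
      have hidx := (isSyl_sylow S).inf_normal (N := D) le_top
        (by rw [Nz, Subgroup.normalizer_eq_top])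
      have hDQ : (S : Subgroup X) ⊓ D ≤ Q := by
        rintro z ⟨hzS, -, hzM⟩
        have : π z ∈ Cfsg.pResidual p (X ⧸ Q) ⊓ (S.mapSurjective hs : Subgroup (X ⧸ Q)) :=
          ⟨hzM, by rw [Sylow.coe_mapSurjective]; exact ⟨z, hzS, rfl⟩⟩
        rw [(Transfer.hasNormalPComplement_iff_disjoint _).mp hquot, Subgroup.mem_bot] at this
        exact (QuotientGroup.eq_one_iff z).mp this
      let P : Sylow p D := (hidx.isP.comap_subtype (K := D)).toSylow hidx.idx
      have hcen : Subgroup.normalizer ((P : Subgroup D) : Set D) ≤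
          Subgroup.centralizer ((P : Subgroup D) : Set D) := by
        intro c _
        rw [Subgroup.mem_centralizer_iff]
        intro z hz
        exact Subtype.ext (Subgroup.mem_centralizer_iff.mp c.2.1 z (hDQ hz))
      have hDnpc := Transfer.hasNormalPComplement_of_normalizer_le_centralizer P hcen
      have hRD : Cfsg.pResidual p D = ⊥ := by
        have h1 : (Cfsg.pResidual p D).map D.subtype ≤ Cfsg.pPrimeCore p X :=
          Cores.le_pPrimeCore_of_not_dvd (Cores.normal_map_subtype_of_characteristic _) (by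
            rw [Subgroup.card_map_of_injective D.subtype_injective]
            exact Transfer.hasNormalPComplement_iff.mp hDnpc)
        rw [hpp, le_bot_iff, Subgroup.map_eq_bot_iff_of_injective _ D.subtype_injective] at h1
        exact h1
      have hDp : IsPGroup p D := by
        intro x
        obtain ⟨k, hk⟩ := Transfer.exists_pow_mem_pResidual (p := p) x
        rw [hRD, Subgroup.mem_bot] at hk
        exact ⟨k, hk⟩
      refine Cores.le_pCore inferInstance fun x => ?_
      obtain ⟨k, hk⟩ := Transfer.exists_pow_mem_pResidual (p := p) (π (x : X))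
      rw [← map_pow] at hk
      have hxM : (x : X) ^ p ^ k ∈ M := hk
      obtain ⟨l, hl⟩ := hDp ⟨(x : X) ^ p ^ k, C.pow_mem x.2 _, hxM⟩
      refine ⟨k + l, Subtype.ext ?_⟩
      rw [SubgroupClass.coe_pow, pow_add, pow_mul]
      exact congrArg Subtype.val hl
    -- `S` is maximal
    have hcoatom : IsCoatom (S : Subgroup X) := by
      refine ⟨fun htop => hnot ?_, fun H hH => by_contra fun hne => ?_⟩
      · have hpX : IsPGroup p X := IsPGroup.of_equiv (htop ▸ S.2) Subgroup.topEquiv
        exact Transfer.hasNormalPComplement_iff.mpr (by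
          rw [Transfer.pResidual_eq_bot_of_isPGroup hpX, Subgroup.card_bot]
          exact (Fact.out : p.Prime).not_dvd_one)
      have hHn := hover H hH.le hne
      set R := (Cfsg.pResidual p H).map H.subtype with hR
      have hRC : R ≤ Subgroup.centralizer (Q : Set X) := by
        rintro _ ⟨r, hr, rfl⟩
        rw [Subgroup.mem_centralizer_iff]
        intro q hq
        have hqH : q ∈ H := hH.le (hQS hq)
        have h1 : r * ⟨q, hqH⟩ * r⁻¹ * (⟨q, hqH⟩ : H)⁻¹ ∈ Cfsg.pResidual p H := by
          rw [show r * ⟨q, hqH⟩ * r⁻¹ * (⟨q, hqH⟩ : H)⁻¹ =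
            r * ((⟨q, hqH⟩ : H) * r⁻¹ * (⟨q, hqH⟩ : H)⁻¹) by group]
          exact mul_mem hr ((inferInstance : (Cfsg.pResidual p H).Normal).conj_mem _ (inv_mem hr) _)
        have h2 : ((r * ⟨q, hqH⟩ * r⁻¹ * (⟨q, hqH⟩ : H)⁻¹ : H) : X) ∈ Q := by
          push_cast
          exact mul_mem ((inferInstance : Q.Normal).conj_mem q hq _) (inv_mem hq)
        have h3 := Transfer.mem_pResidual_iff_coprime hHn _ |>.mp h1
        obtain ⟨k, hk⟩ := Cores.pCore_isPGroup (p := p) (G := X) ⟨_, h2⟩
        have h4 : orderOf (r * ⟨q, hqH⟩ * r⁻¹ * (⟨q, hqH⟩ : H)⁻¹) = 1 :=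
          Nat.eq_one_of_dvd_coprimes (h3.pow_right k) dvd_rfl
            (orderOf_dvd_of_pow_eq_one (Subtype.ext (by simpa using congrArg Subtype.val hk)))
        have h5 := congrArg Subtype.val (orderOf_eq_one_iff.mp h4)
        push_cast at h5
        rw [mul_inv_eq_one, mul_inv_eq_iff_eq_mul] at h5
        exact h5.symm
      have hR1 : Cfsg.pResidual p H = ⊥ := by
        refine (Subgroup.eq_bot_iff_forall _).mpr fun r hr => ?_
        obtain ⟨k, hk⟩ := Cores.pCore_isPGroup (p := p) (G := X)
          ⟨(r : X), hC (hRC ⟨r, hr, rfl⟩)⟩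
        exact orderOf_eq_one_iff.mp (Nat.eq_one_of_dvd_coprimes
          (((Transfer.mem_pResidual_iff_coprime hHn r).mp hr).pow_right k) dvd_rfl
          (orderOf_dvd_of_pow_eq_one (Subtype.ext (by simpa using congrArg Subtype.val hk))))
      have hHp : IsPGroup p H := by
        intro x
        obtain ⟨k, hk⟩ := Transfer.exists_pow_mem_pResidual (p := p) x
        rw [hR1, Subgroup.mem_bot] at hk
        exact ⟨k, hk⟩
      exact hH.ne (S.3 hHp hH.le).symm
    exact hnot (hmin X hX hC hquot S hcoatom hN)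

end Cfsg.Agent.CF
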