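import Cfsg.Agent.CF.NPC
import Cfsg.Agent.CF.AbelianByP
import Cfsg.Agent.CF.SectionTools
import Cfsg.Agent.Transfer.Fusion

/-!
Normal p-complement criteria.
-/

set_option autoImplicit false

open scoped commutatorElement Pointwise

namespace Cfsg.Agent.CF

open Cfsg.Agent.Fusion

universe u

variable {p : ℕ} [Fact p.Prime]

/-- In the minimal configuration `O^p` modulo `O_p` is an abelian p'-group. -/
theorem class_of_minimal {X : Type*} [Group X] [Finite X]
    (hquot : Cfsg.HasNormalPComplement p (X ⧸ Cfsg.pCore p X)) (S : Sylow p X)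
    (hmax : IsCoatom (S : Subgroup X)) : ClassPAP p X := by
  set Q := Cfsg.pCore p X with hQdef
  set π := QuotientGroup.mk' Q with hπ
  have hs : Function.Surjective π := QuotientGroup.mk'_surjective Q
  set Sb := (S.mapSurjective hs : Sylow p (X ⧸ Q)) with hSb
  set Mb := Cfsg.pResidual p (X ⧸ Q) with hMb
  have hdis : Mb ⊓ (Sb : Subgroup (X ⧸ Q)) = ⊥ :=
    (Transfer.hasNormalPComplement_iff_disjoint _).mp hquot
  have hmaxq : ∀ H : Subgroup (X ⧸ Q), (Sb : Subgroup (X ⧸ Q)) ≤ H →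
      H = (Sb : Subgroup (X ⧸ Q)) ∨ H = ⊤ := by
    intro H hH
    rw [hSb, Sylow.coe_mapSurjective] at hH ⊢
    rcases hmax.le_iff.mp (Subgroup.map_le_iff_le_comap.mp hH) with h | h
    · exact Or.inr (Subgroup.comap_injective hs (h.trans (Subgroup.comap_top π).symm))
    · exact Or.inl (by rw [← Subgroup.map_comap_eq_self_of_surjective hs H, h])
  have hcomm : ⁅Mb, Mb⁆ = ⊥ := by
    by_cases hMb1 : Mb = ⊥
    · rw [hMb1, Subgroup.commutator_bot_left]
    obtain ⟨q, hq, hqd⟩ := Nat.exists_prime_and_dvd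
      (n := Nat.card Mb) fun h1 => hMb1 (Subgroup.eq_bot_of_card_eq _ h1)
    haveI := Fact.mk hq
    obtain ⟨R₀⟩ : Nonempty (Sylow q Mb) := inferInstance
    set R := (R₀ : Subgroup Mb).map Mb.subtype with hR
    set N := Subgroup.normalizer (R : Set (X ⧸ Q)) with hN
    have hNM : N ⊔ Mb = ⊤ := Sylow.normalizer_sup_eq_top R₀
    have hidx : ¬ p ∣ N.index := by
      intro hd
      have h1 := Cores.card_sup_dvd_mul N Mb
      rw [hNM, Subgroup.card_top, ← N.card_mul_index] at h1
      exact Transfer.hasNormalPComplement_iff.mp hquot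
        (hd.trans (Nat.dvd_of_mul_dvd_mul_left Nat.card_pos h1))
    obtain ⟨g, hg⟩ : ∃ g : X ⧸ Q, cj g (Sb : Subgroup (X ⧸ Q)) ≤ N := by
      obtain ⟨P⟩ : Nonempty (Sylow p N) := inferInstance
      have hP : IsSyl p ((P : Subgroup N).map N.subtype) ⊤ := by
        refine ⟨le_top, P.2.map _, fun hd => ?_⟩
        rw [Subgroup.relIndex_top_right, Subgroup.index_map_subtype] at hd
        rcases (Nat.Prime.dvd_mul (Fact.out : p.Prime)).mp hd with h | h
        · exact P.not_dvd_index h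
        · exact hidx h
      obtain ⟨g, -, he⟩ := (isSyl_sylow Sb).exists_conj hP
      exact ⟨g, he.le.trans (Subgroup.map_subtype_le _)⟩
    set R' := cj g⁻¹ R with hR'
    have hR'M : R' ≤ Mb := (cj_mono _ (Subgroup.map_subtype_le _)).trans (cj_eq_of_normal _ Mb).le
    have hR'N : (Sb : Subgroup (X ⧸ Q)) ≤ Nz R' := by
      rw [hR', ← cj_Nz, le_cj_iff, inv_inv]
      exact hg
    rcases hmaxq (R' ⊔ (Sb : Subgroup (X ⧸ Q))) le_sup_right with h | h
    · exfalso
      have h1 : R' = ⊥ := le_bot_iff.mp (hdis ▸ le_inf hR'M (le_sup_left.trans h.le))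
      have h2 : R ≠ ⊥ := fun hb => by
        rw [hR, Subgroup.map_eq_bot_iff_of_injective _ Mb.subtype_injective] at hb
        have := R₀.dvd_card_of_dvd_card hqd
        rw [hb, Subgroup.card_bot] at this
        exact hq.ne_one (Nat.dvd_one.mp this)
      exact cj_ne_bot h2 h1
    have hMR : Mb = R' := by
      refine le_antisymm (fun m hm => ?_) hR'M
      have hm' : m ∈ ((R' ⊔ (Sb : Subgroup (X ⧸ Q)) : Subgroup (X ⧸ Q)) : Set (X ⧸ Q)) := by
        rw [h]; trivial
      rw [Subgroup.coe_mul_of_right_le_normalizer_left _ _ hR'N] at hm'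
      obtain ⟨r, hr, s, hs', rfl⟩ := Set.mem_mul.mp hm'
      have hsM : s ∈ Mb ⊓ (Sb : Subgroup (X ⧸ Q)) := by
        refine ⟨?_, hs'⟩
        simpa using mul_mem (inv_mem (hR'M hr)) hm
      rw [hdis, Subgroup.mem_bot] at hsM
      rw [hsM, mul_one]
      exact hr
    have hMq : IsPGroup q Mb := hMR ▸ isPGroup_cj (R₀.2.map _) _
    haveI : Group.IsNilpotent Mb := hMq.isNilpotent
    haveI : Group.IsSolvable Mb := inferInstance
    haveI : Nontrivial Mb := (Subgroup.nontrivial_iff_ne_bot _).mpr hMb1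
    rcases hmaxq (⁅Mb, Mb⁆ ⊔ (Sb : Subgroup (X ⧸ Q))) le_sup_right with h' | h'
    · exact le_bot_iff.mp (hdis ▸ le_inf (Subgroup.commutator_le_self Mb) (le_sup_left.trans h'.le))
    exfalso
    refine (Group.IsSolvable.commutator_lt_top_of_nontrivial Mb).ne (top_le_iff.mp fun m _ => ?_)
    have hm' : (m : X ⧸ Q) ∈ ((⁅Mb, Mb⁆ ⊔ (Sb : Subgroup (X ⧸ Q)) : Subgroup (X ⧸ Q)) : Set _) := by
      rw [h']; trivial
    rw [Subgroup.normal_mul] at hm'
    obtain ⟨r, hr, s, hs', he⟩ := Set.mem_mul.mp hm'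
    have hsM : s ∈ Mb ⊓ (Sb : Subgroup (X ⧸ Q)) := by
      refine ⟨?_, hs'⟩
      have := mul_mem (inv_mem (Subgroup.commutator_le_self Mb hr)) m.2
      rwa [← he, inv_mul_cancel_left] at this
    rw [hdis, Subgroup.mem_bot] at hsM
    rw [hsM, mul_one] at he
    rw [← Subgroup.map_subtype_commutator] at hr
    obtain ⟨r', hr', rfl⟩ := hr
    rw [← Subtype.ext he]
    exact hr'
  refine ⟨Q, Mb.comap π, inferInstance, inferInstance, Cores.pCore_isPGroup, ?_, ?_, ?_⟩
  · calc ⁅Mb.comap π, Mb.comap π⁆ ≤ (⁅Mb, Mb⁆).comap π := by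
          rw [← Subgroup.map_le_iff_le_comap, Subgroup.map_commutator]
          exact Subgroup.commutator_mono (Subgroup.map_comap_le _ _) (Subgroup.map_comap_le _ _)
      _ ≤ Q := by
          rw [hcomm]
          exact le_of_eq ((MonoidHom.comap_bot π).trans (QuotientGroup.ker_mk' Q))
  · intro x hx
    refine ⟨orderOf (π x), (Transfer.mem_pResidual_iff_coprime hquot _).mp hx,
      (QuotientGroup.eq_one_iff _).mp ?_⟩
    show π (x ^ orderOf (π x)) = 1
    rw [map_pow, pow_orderOf_eq_one]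
  · intro y
    obtain ⟨k, hk⟩ := Transfer.exists_pow_mem_pResidual (p := p) (π y)
    exact ⟨k, by rw [Subgroup.mem_comap, map_pow]; exact hk⟩

variable {W : ∀ (Q : Type u) [Group Q], Subgroup Q}

theorem npc_of_normal_W {X : Type u} [Group X] [Finite X] {S : Sylow p X}
    (hn : (Cfsg.inducedFunctor W (S : Subgroup X)).Normal)
    (hN : Cfsg.HasNormalPComplement p ↥(Nz (Cfsg.inducedFunctor W (S : Subgroup X)))) :
    Cfsg.HasNormalPComplement p X :=
  npc_of_Nz_top (Subgroup.normalizer_eq_top (h := hn)) hN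

/-- A chief factor acted on nontrivially with small degree gives a p-complement. -/
theorem minimalNPC_of_local {G : Type u} [Group G]
    (h : ∀ (X : Type u) [Group X] [Finite X], IsSec X G → Constrained p X → ∀ S : Sylow p X,
      ¬ (Cfsg.inducedFunctor W (S : Subgroup X)).Normal →
        ∃ g : X, g ∈ (S : Subgroup X) ∧ ∃ U V : Subgroup X, Cfsg.IsChiefFactor U V ∧
          U ≤ Cfsg.pCore p X ∧ Cfsg.iterCommutator U (Subgroup.zpowers g) (p - 1) ≤ V ∧
          ¬ ⁅U, Subgroup.zpowers g⁆ ≤ V) : MinimalNPC p W G := by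
  intro X _ _ hX hC hquot S hmax hN
  by_cases hn : (Cfsg.inducedFunctor W (S : Subgroup X)).Normal
  · exact npc_of_normal_W hn hN
  obtain ⟨g, hg, U, V, hUV, hU, hit, hne⟩ := h X hX hC S hn
  haveI : V.Normal := hUV.2.2.1
  obtain ⟨k, hk⟩ := S.2 ⟨g, hg⟩
  have hk' : g ^ p ^ k = 1 := by simpa using congrArg Subtype.val hk
  exact absurd (zpowers_commutator_le (chief_trivial_of_class (class_of_minimal hquot S hmax) hUV
    (Cores.pCore_isPGroup.to_le hU) hit (k := k)
    fun u hu => by rw [hk', commutatorElement_one_left]; exact V.one_mem)) hne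

/-- Control of strong fusion by a subgroup with a p-complement gives a p-complement. -/
theorem npc_of_fusIn {X : Type u} [Group X] [Finite X] (S : Sylow p X)
    {F : Subgroup X → Subgroup X} (hSN : (S : Subgroup X) ≤ Nz (F (S : Subgroup X)))
    (h : FusIn {F} ⊤ (S : Subgroup X))
    (hN : Cfsg.HasNormalPComplement p ↥(Nz (F (S : Subgroup X)))) :
    Cfsg.HasNormalPComplement p X := by
  refine Transfer.hasNormalPComplement_of_controlsFusion S fun x hx g hg => ?_
  obtain ⟨n, hn, he⟩ := agree_of_fusIn_singleton h (Subgroup.zpowers_le.mpr hx)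
    (Subgroup.mem_top g) (cj_zpowers_le hg)
  set N := Nz (F (S : Subgroup X)) with hNdef
  let P : Sylow p N := S.subtype hSN
  have hc := Transfer.isComplement'_pResidual hN P
  obtain ⟨⟨⟨r, hr⟩, ⟨s, hs⟩⟩, hrs⟩ := hc.2 (⟨n, hn.2⟩ : N)
  have hsS : (s : X) ∈ (S : Subgroup X) := hs
  refine ⟨s, hsS, ?_⟩
  rw [← he x (Subgroup.mem_zpowers x)]
  set y : N := s * ⟨x, hSN hx⟩ * s⁻¹ with hy
  have hnN : r * s = (⟨n, hn.2⟩ : N) := hrs
  have hcon : r * y * r⁻¹ = ⟨n, hn.2⟩ * ⟨x, hSN hx⟩ * (⟨n, hn.2⟩ : N)⁻¹ := by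
    rw [← hnN, hy]; group
  have hyP : y ∈ (P : Subgroup N) :=
    mul_mem (mul_mem hs (show (⟨x, hSN hx⟩ : N) ∈ (P : Subgroup N) from hx))
      (inv_mem (show s ∈ (P : Subgroup N) from hs))
  have h1 : r * y * r⁻¹ * y⁻¹ ∈ Cfsg.pResidual p N ⊓ (P : Subgroup N) := by
    refine ⟨?_, mul_mem ?_ ((P : Subgroup N).inv_mem hyP)⟩
    · rw [show r * y * r⁻¹ * y⁻¹ = r * (y * r⁻¹ * y⁻¹) by group]
      exact mul_mem hr ((inferInstance : (Cfsg.pResidual p N).Normal).conj_mem _ (inv_mem hr) _)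
    · rw [hcon]
      show n * x * n⁻¹ ∈ (S : Subgroup X)
      rw [he x (Subgroup.mem_zpowers x)]
      exact hg
  rw [(Transfer.hasNormalPComplement_iff_disjoint P).mp hN, Subgroup.mem_bot, mul_inv_eq_one,
    hcon] at h1
  exact (congrArg Subtype.val h1).symm

/-- `N(T)` has a normal p-complement when it acts on `T` as a p-group and `C_S(T) ≤ T`. -/
theorem npc_normalizer {G : Type*} [Group G] [Finite G] (S : Sylow p G) (T : Subgroup G)
    (hTn : (S : Subgroup G) ≤ Nz T)
    (hC : (S : Subgroup G) ⊓ Subgroup.centralizer (T : Set G) ≤ T)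
    (hN : ∀ g ∈ Nz T, (orderOf g).Coprime p → g ∈ Subgroup.centralizer (T : Set G)) :
    Cfsg.HasNormalPComplement p ↥(Nz T) := by
  set N := Nz T with hNdef
  set C := Subgroup.centralizer (T : Set G) with hCdef
  have hCN : C ≤ N := fun c hc => mem_Nz.mpr ((cj_congr (g' := 1) fun d hd => by
    rw [← Subgroup.mem_centralizer_iff.mp hc d hd]; group).trans (cj_one T))
  have hNC : N ≤ Nz C := Subgroup.le_normalizer_iff.mpr fun g hg c hc => by
    rw [hCdef, Subgroup.mem_centralizer_iff] at hc ⊢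
    intro t ht
    have h2 := hc _ ((Subgroup.mem_normalizer_iff''.mp hg t).mp ht)
    calc t * (g * c * g⁻¹) = g * ((g⁻¹ * t * g) * c) * g⁻¹ := by group
      _ = g * (c * (g⁻¹ * t * g)) * g⁻¹ := by rw [h2]
      _ = g * c * g⁻¹ * t := by group
  have hidx := (IsSyl.sylow_inf (S := S) hTn).inf_normal hCN hNC
  let P : Sylow p C := (hidx.isP.comap_subtype (K := C)).toSylow hidx.idx
  have hcen : Subgroup.normalizer ((P : Subgroup C) : Set C) ≤
      Subgroup.centralizer ((P : Subgroup C) : Set C) := by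
    intro c _
    rw [Subgroup.mem_centralizer_iff]
    intro z hz
    exact Subtype.ext (Subgroup.mem_centralizer_iff.mp c.2 z (hC hz)).symm |>.symm
  have hCnpc := Transfer.hasNormalPComplement_of_normalizer_le_centralizer P hcen
  rw [Transfer.hasNormalPComplement_iff] at hCnpc ⊢
  intro hd
  refine hCnpc ?_
  have hle : (Cfsg.pResidual p N).map N.subtype ≤ (Cfsg.pResidual p C).map C.subtype := by
    rw [Cfsg.pResidual, MonoidHom.map_closure, Subgroup.closure_le]
    rintro _ ⟨g, hg, rfl⟩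
    have hgC : (g : G) ∈ C := hN g g.2 (by rw [Subgroup.orderOf_coe]; exact hg)
    refine ⟨⟨g, hgC⟩, Transfer.mem_pResidual_of_coprime ?_, rfl⟩
    show (orderOf (⟨(g : G), hgC⟩ : C)).Coprime p
    rw [← Subgroup.orderOf_coe, Subgroup.orderOf_coe g]
    exact hg
  have h2 := hd.trans (dvd_of_eq (Subgroup.card_map_of_injective N.subtype_injective).symm)
  refine (h2.trans (Subgroup.card_dvd_of_le hle)).trans ?_
  exact dvd_of_eq (Subgroup.card_map_of_injective C.subtype_injective)

end Cfsg.Agent.CF
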